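import Mathlib

/-!
# The arithmetic of a principal 2-block with four characters

Numbers `x₁ x₂ x₃` dividing `n = 4 * 3 ^ u * r ^ v`, with signs `ε₁ ε₂ ε₃`.
-/

set_option autoImplicit false

namespace Cfsg.Agent.Lib.SmallCof

/-- A divisor of `n = 4 * 3 ^ u * r ^ v` prime to `2` and `r` divides `3 ^ u`. -/
theorem dvd_three_pow {n u r v x : ℕ} (hn : n = 4 * 3 ^ u * r ^ v) (hr : r.Prime)
    (hodd : Odd x) (hxr : ¬ r ∣ x) (hd : x ∣ n) : x ∣ 3 ^ u := by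
  have h4 : Nat.Coprime x 4 := by
    have : Nat.Coprime x (2 ^ 2) := Nat.Coprime.pow_right 2 (Nat.coprime_two_right.mpr hodd)
    simpa using this
  have hrv : Nat.Coprime x (r ^ v) :=
    Nat.Coprime.pow_right v ((Nat.Prime.coprime_iff_not_dvd hr).mpr hxr).symm
  rw [hn] at hd
  exact h4.dvd_of_dvd_mul_left (hrv.dvd_of_dvd_mul_right hd)

/-- A prime other than `2, 3` dividing `n` is `r`. -/
theorem prime_eq_of_dvd {n u r v ℓ : ℕ} (hn : n = 4 * 3 ^ u * r ^ v) (hr : r.Prime)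
    (hℓ : ℓ.Prime) (h2 : ℓ ≠ 2) (h3 : ℓ ≠ 3) (hd : ℓ ∣ n) : ℓ = r ∧ v ≠ 0 := by
  rw [hn] at hd
  rcases (Nat.Prime.dvd_mul hℓ).mp hd with h | h
  · exfalso
    rcases (Nat.Prime.dvd_mul hℓ).mp h with h | h
    · have : ℓ ∣ 2 ^ 2 := by simpa using h
      exact h2 ((Nat.prime_dvd_prime_iff_eq hℓ Nat.prime_two).mp (hℓ.dvd_of_dvd_pow this))
    · exact h3 ((Nat.prime_dvd_prime_iff_eq hℓ Nat.prime_three).mp (hℓ.dvd_of_dvd_pow h))
  · refine ⟨(Nat.prime_dvd_prime_iff_eq hℓ hr).mp (hℓ.dvd_of_dvd_pow h), ?_⟩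
    rintro rfl
    simp only [pow_zero, Nat.dvd_one] at h
    exact hℓ.one_lt.ne' h

theorem le_one_of_not_sq_dvd {n u r v : ℕ} (hn : n = 4 * 3 ^ u * r ^ v) (h : ¬ 3 ^ 2 ∣ n) :
    u ≤ 1 := by
  by_contra hu
  apply h
  rw [hn]
  exact Dvd.dvd.mul_right (Dvd.dvd.mul_left (pow_dvd_pow 3 (by omega)) _) _

theorem le_one_of_not_sq_dvd' {n u r v : ℕ} (hn : n = 4 * 3 ^ u * r ^ v) (h : ¬ r ^ 2 ∣ n) :
    v ≤ 1 := by
  by_contra hv
  apply h
  rw [hn]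
  exact Dvd.dvd.mul_left (pow_dvd_pow r (by omega)) _

/-- The core case: `x₁ ∈ {3, 7}`, and `r` does not divide `x₂`. -/
theorem arith_aux {n u r v x₁ x₂ x₃ : ℕ} {ε₂ ε₃ : ℤ} (hn : n = 4 * 3 ^ u * r ^ v)
    (hr : r.Prime) (hr2 : r ≠ 2) (hr3 : r ≠ 3)
    (hε₂ : ε₂ = 1 ∨ ε₂ = -1) (hε₃ : ε₃ = 1 ∨ ε₃ = -1)
    (hR : 1 - (x₁ : ℤ) + x₂ * ε₂ + x₃ * ε₃ = 0)
    (hm₂ : ∃ m : ℤ, (x₂ : ℤ) + 3 * ε₂ = 4 * m) (hm₃ : ∃ m : ℤ, (x₃ : ℤ) + 3 * ε₃ = 4 * m)
    (hd₁ : x₁ ∣ n) (hd₂ : x₂ ∣ n) (hd₃ : x₃ ∣ n) (h1₂ : x₂ ≠ 1) (h1₃ : x₃ ≠ 1)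
    (hp₁ : ∀ π : ℕ, π.Prime → x₁ = π → ¬ π ^ 2 ∣ n)
    (hp₂ : ∀ π : ℕ, π.Prime → x₂ = π → ¬ π ^ 2 ∣ n)
    (hp₃ : ∀ π : ℕ, π.Prime → x₃ = π → ¬ π ^ 2 ∣ n)
    (hx₁ : x₁ = 3 ∨ x₁ = 7) (hx₂r : ¬ r ∣ x₂) : n = 60 := by
  have hodd₂ : Odd x₂ := by
    obtain ⟨m, hm⟩ := hm₂
    rw [Nat.odd_iff]
    rcases hε₂ with rfl | rfl <;> omega
  have hodd₃ : Odd x₃ := by
    obtain ⟨m, hm⟩ := hm₃
    rw [Nat.odd_iff]
    rcases hε₃ with rfl | rfl <;> omega
  have hx₂ := dvd_three_pow hn hr hodd₂ hx₂r hd₂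
  obtain ⟨k, hk, hk2⟩ := (Nat.dvd_prime_pow Nat.prime_three).mp hx₂
  have hk0 : k ≠ 0 := by
    rintro rfl
    exact h1₂ (by simpa using hk2)
  rcases hx₁ with rfl | rfl
  · -- `x₁ = 3`
    have hu := le_one_of_not_sq_dvd hn (hp₁ 3 Nat.prime_three rfl)
    have hk1 : k = 1 := by omega
    have hu1 : u = 1 := by omega
    subst hk1
    subst hu1
    rw [pow_one] at hk2
    subst hk2
    obtain ⟨m, hm⟩ := hm₂
    have hε₂' : ε₂ = -1 := by
      rcases hε₂ with rfl | rfl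
      · omega
      · rfl
    subst hε₂'
    have hx₃ : x₃ = 5 := by
      rcases hε₃ with rfl | rfl
      · push_cast at hR
        omega
      · push_cast at hR
        omega
    subst hx₃
    obtain ⟨hr5, hv0⟩ := prime_eq_of_dvd hn hr (by norm_num) (by norm_num) (by norm_num) hd₃
    subst hr5
    have hv := le_one_of_not_sq_dvd' hn (hp₃ 5 (by norm_num) rfl)
    have hv1 : v = 1 := by omega
    subst hv1
    rw [hn]
    norm_num
  · -- `x₁ = 7`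
    exfalso
    obtain ⟨hr7, hv0⟩ := prime_eq_of_dvd hn hr (by norm_num) (by norm_num) (by norm_num) hd₁
    subst hr7
    have hv := le_one_of_not_sq_dvd' hn (hp₁ 7 (by norm_num) rfl)
    have hv1 : v = 1 := by omega
    subst hv1
    have h9n : ¬ 3 ^ 2 ∣ n → u ≤ 1 := le_one_of_not_sq_dvd hn
    by_cases hk1 : k = 1
    · subst hk1
      rw [pow_one] at hk2
      subst hk2
      obtain ⟨m, hm⟩ := hm₂
      have hε₂' : ε₂ = -1 := by
        rcases hε₂ with rfl | rfl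
        · omega
        · rfl
      subst hε₂'
      have hx₃ : x₃ = 9 := by
        rcases hε₃ with rfl | rfl
        · push_cast at hR
          omega
        · push_cast at hR
          omega
      subst hx₃
      exact hp₂ 3 Nat.prime_three rfl (by simpa using hd₃)
    · -- `9 ∣ x₂`
      have h9x : 9 ∣ x₂ := by
        rw [hk2]
        exact pow_dvd_pow 3 (show 2 ≤ k by omega)
      obtain ⟨w, hw⟩ := h9x
      have hmod : x₃ % 9 = 3 ∨ x₃ % 9 = 6 := by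
        rcases hε₂ with rfl | rfl <;> rcases hε₃ with rfl | rfl <;> push_cast at hR <;>
          rw [hw] at hR <;> push_cast at hR <;> omega
      have h4 : Nat.Coprime x₃ 4 := by
        have : Nat.Coprime x₃ (2 ^ 2) := Nat.Coprime.pow_right 2 (Nat.coprime_two_right.mpr hodd₃)
        simpa using this
      have hd3' : x₃ ∣ 3 ^ u * 7 := by
        rw [hn, pow_one, mul_assoc] at hd₃
        exact h4.dvd_of_dvd_mul_left hd₃
      obtain ⟨y, z, hy, hz, hyz⟩ := (Nat.dvd_mul).mp hd3'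
      obtain ⟨s, hs, hs2⟩ := (Nat.dvd_prime_pow Nat.prime_three).mp hy
      have hz' : z = 1 ∨ z = 7 := (Nat.dvd_prime (by norm_num)).mp hz
      have hx3 : x₃ = 3 ∨ x₃ = 21 := by
        have hs1 : s = 1 := by
          by_contra hs1
          rcases Nat.lt_or_ge s 2 with h | h
          · have : s = 0 := by omega
            subst this
            rw [pow_zero] at hs2
            subst hs2
            rcases hz' with rfl | rfl <;> · rw [← hyz] at hmod; omega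
          · have h9 : 9 ∣ y := by
              rw [hs2]
              exact pow_dvd_pow 3 h
            obtain ⟨t, ht⟩ := h9
            rw [← hyz, ht] at hmod
            have : 9 * t * z % 9 = 0 := by rw [mul_assoc]; exact Nat.mul_mod_right _ _
            omega
        subst hs1
        rw [pow_one] at hs2
        subst hs2
        rcases hz' with rfl | rfl
        · left; omega
        · right; omega
      rcases hx3 with rfl | rfl
      · apply hp₃ 3 Nat.prime_three rfl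
        rw [show 3 ^ 2 = 9 by norm_num]
        rw [hw] at hd₂
        exact (Dvd.intro _ rfl).trans hd₂
      · obtain ⟨m, hm⟩ := hm₃
        have hε₃' : ε₃ = 1 := by
          rcases hε₃ with rfl | rfl
          · rfl
          · push_cast at hm; omega
        subst hε₃'
        rcases hε₂ with rfl | rfl <;> push_cast at hR <;> rw [hw] at hR <;> push_cast at hR <;>
          omega

/-- The arithmetic of the block. -/
theorem arith_main {n u r v x₁ x₂ x₃ : ℕ} {ε₁ ε₂ ε₃ : ℤ} (hn : n = 4 * 3 ^ u * r ^ v)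
    (hr : r.Prime) (hr2 : r ≠ 2) (hr3 : r ≠ 3) (hε₁ : ε₁ = -1)
    (hε₂ : ε₂ = 1 ∨ ε₂ = -1) (hε₃ : ε₃ = 1 ∨ ε₃ = -1)
    (hR : 1 + (x₁ : ℤ) * ε₁ + x₂ * ε₂ + x₃ * ε₃ = 0)
    (hm₁ : ∃ m : ℤ, (x₁ : ℤ) + 3 * ε₁ = 4 * m)
    (hm₂ : ∃ m : ℤ, (x₂ : ℤ) + 3 * ε₂ = 4 * m) (hm₃ : ∃ m : ℤ, (x₃ : ℤ) + 3 * ε₃ = 4 * m)
    (hd₁ : x₁ ∣ n) (hd₂ : x₂ ∣ n) (hd₃ : x₃ ∣ n) (h1₂ : x₂ ≠ 1) (h1₃ : x₃ ≠ 1)
    (hp₁ : ∀ π : ℕ, π.Prime → x₁ = π → ¬ π ^ 2 ∣ n)
    (hp₂ : ∀ π : ℕ, π.Prime → x₂ = π → ¬ π ^ 2 ∣ n)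
    (hp₃ : ∀ π : ℕ, π.Prime → x₃ = π → ¬ π ^ 2 ∣ n)
    (hell : ∀ ℓ : ℕ, ℓ.Prime → ℓ ≠ 2 →
      (ℓ : ℤ) ∣ ((x₁ : ℤ) + ε₁) * ((x₂ : ℤ) + ε₂) * ((x₃ : ℤ) + ε₃) → ℓ ∣ n)
    (hle : x₁ ≤ 16) : n = 60 := by
  subst hε₁
  obtain ⟨m, hm⟩ := hm₁
  have h1' : (x₁ : ℤ) - 3 = 4 * m := by linarith
  have hcases : x₁ = 3 ∨ x₁ = 7 ∨ x₁ = 11 ∨ x₁ = 15 := by omega
  have hR' : 1 - (x₁ : ℤ) + x₂ * ε₂ + x₃ * ε₃ = 0 := by linarith
  have hmain : x₁ = 3 ∨ x₁ = 7 := by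
    rcases hcases with h | h | h | h
    · exact Or.inl h
    · exact Or.inr h
    · exfalso
      subst h
      have h5 := hell 5 (by norm_num) (by norm_num) (by
        refine Dvd.dvd.mul_right (Dvd.dvd.mul_right ?_ _) _
        norm_num)
      have h11 := prime_eq_of_dvd hn hr (ℓ := 11) (by norm_num) (by norm_num) (by norm_num) hd₁
      have h5' := prime_eq_of_dvd hn hr (by norm_num) (by norm_num) (by norm_num) h5
      have := h11.1
      have := h5'.1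
      omega
    · exfalso
      subst h
      have h7 := hell 7 (by norm_num) (by norm_num) (by
        refine Dvd.dvd.mul_right (Dvd.dvd.mul_right ?_ _) _
        norm_num)
      have h5 : 5 ∣ n := (by norm_num : 5 ∣ 15).trans hd₁
      have h7' := prime_eq_of_dvd hn hr (by norm_num) (by norm_num) (by norm_num) h7
      have h5' := prime_eq_of_dvd hn hr (by norm_num) (by norm_num) (by norm_num) h5
      have := h7'.1
      have := h5'.1
      omega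
  by_cases hx₂r : r ∣ x₂
  · by_cases hx₃r : r ∣ x₃
    · exfalso
      obtain ⟨s, hs⟩ := hx₂r
      obtain ⟨t, ht⟩ := hx₃r
      rcases hmain with h | h
      · -- `r ∣ 2`
        subst h
        have h1 : (r : ℤ) ∣ 2 := by
          refine ⟨(s : ℤ) * ε₂ + t * ε₃, ?_⟩
          rw [hs, ht] at hR'
          push_cast at hR'
          linarith
        have h2 : r ∣ 2 := by exact_mod_cast h1
        exact hr2 ((Nat.prime_dvd_prime_iff_eq hr Nat.prime_two).mp h2)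
      · -- `r = 7`, `r ∣ 6`
        subst h
        have h7 := prime_eq_of_dvd hn hr (by norm_num) (by norm_num) (by norm_num) hd₁
        have hr7 := h7.1
        subst hr7
        have h1 : ((7 : ℕ) : ℤ) ∣ 6 := by
          refine ⟨(s : ℤ) * ε₂ + t * ε₃, ?_⟩
          rw [hs, ht] at hR'
          push_cast at hR' ⊢
          linarith
        norm_num at h1
    · -- symmetric
      exact arith_aux hn hr hr2 hr3 hε₃ hε₂ (by linarith) hm₃ hm₂ hd₁ hd₃ hd₂ h1₃ h1₂ hp₁ hp₃ hp₂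
        hmain hx₃r
  · exact arith_aux hn hr hr2 hr3 hε₂ hε₃ hR' hm₂ hm₃ hd₁ hd₂ hd₃ h1₂ h1₃ hp₁ hp₂ hp₃ hmain hx₂r

end Cfsg.Agent.Lib.SmallCof
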