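import Cfsg.Agent.Lib.CharDeg.PrimeDeg
import Cfsg.Agent.Lib.CharDeep.BlichB
import Cfsg.Agent.Lib.ExcP.Gram
import Cfsg.Agent.Lib.Blocks.PPart
import Cfsg.Agent.Lib.Char.DefectZero
import Cfsg.Agent.Lib.Char.Central
import Mathlib

/-!
# Simple groups with a nontrivial irreducible character of prime degree

If `χ` is a nontrivial irreducible character of prime degree `π` of a nonabelian simple group
`S`, then `π` divides the order of `S` at most once and subgroups of order `π` are
self-centralizing.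
-/

set_option autoImplicit false
set_option linter.unusedSectionVars false
set_option linter.style.haveILetI false
set_option linter.unusedVariables false

namespace Cfsg.Agent.Lib.SmallCof

open Cfsg Module Subgroup
open Cfsg.Agent.Lib.Char.Basic Cfsg.Agent.Lib.Char.Ortho Cfsg.Agent.Lib.Char.Complete
open Cfsg.Agent.Lib.Char.Degree Cfsg.Agent.Lib.Char.Clifford
open Cfsg.Agent.Lib.CharDeg.PrimeDeg
open scoped ComplexConjugate

universe u

/-- Characters of `p`-defect zero vanish on `p`-singular elements. -/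
theorem value_eq_zero_of_defect_zero {G : Type u} [Group G] [Finite G] (j : IrrCharacter G)
    {p n : ℕ} (hp : p.Prime)
    (hn : p ^ n ∣ Nat.card G) (hn' : ¬ p ^ (n + 1) ∣ Nat.card G)
    (hdeg : p ^ n ∣ charDegree (j : G → ℂ)) {x : G} (hx : p ∣ orderOf x) : (j : G → ℂ) x = 0 := by
  classical
  obtain ⟨n', ρ, hρ, hjρ⟩ := j.2
  have hjc : (j : G → ℂ) = ρ.character := hjρ.symm
  rw [hjc] at hdeg ⊢
  rw [charDegree_character] at hdeg
  haveI : ρ.IsIrreducible := hρ
  exact Cfsg.Agent.Lib.Char.DefectZero.character_eq_zero_of_defect_zero ρ p n hp hn hn' hdeg x hx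

/-- The degree of a character of an abelian group is at most its norm. -/
theorem charDegree_le_classInner_self {K : Type u} [Group K] [Fintype K]
    (hK : ∀ a b : K, a * b = b * a) {ψ : K → ℂ} (hψ : IsCharacter K ψ) :
    (charDegree ψ : ℝ) ≤ (classInner ψ ψ).re := by
  classical
  haveI := finite_irrCharacter (G := K)
  letI := Fintype.ofFinite (IrrCharacter K)
  obtain ⟨m, hm⟩ := exists_nat_combination hψ
  have h1 : (charDegree ψ : ℂ) = ((∑ i, m i : ℕ) : ℂ) := by
    rw [charDegree_natCast hψ, hm]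
    simp only [Finset.sum_apply, Pi.smul_apply]
    simp only [nsmul_eq_mul, Nat.cast_sum]
    refine Finset.sum_congr rfl fun i _ => ?_
    rw [Cfsg.Agent.Lib.Char.Linear.isIrr_deg_one_of_comm hK i.2, mul_one]
  have h2 : charDegree ψ = ∑ i, m i := by exact_mod_cast h1
  have h3 : classInner ψ ψ = ((∑ j, m j ^ 2 : ℕ) : ℂ) := by
    rw [hm]
    exact classInner_self_of_nat_combination m
  rw [h3, Complex.natCast_re, h2]
  have h4 : ∑ i, m i ≤ ∑ j, m j ^ 2 :=
    Finset.sum_le_sum fun i _ => Nat.le_self_pow (by norm_num) _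
  exact_mod_cast h4

section Simple

variable {S : Type u} [Group S] [Finite S] [hsim : IsSimpleGroup S]

/-- An element on which the nontrivial irreducible character `χ` has maximal absolute value is
trivial. -/
theorem eq_one_of_norm_eq (hna : ∃ a b : S, a * b ≠ b * a) (χ : IrrCharacter S)
    (hχ : χ ≠ one' S) {x : S} (h : ‖(χ : S → ℂ) x‖ = charDegree (χ : S → ℂ)) : x = 1 := by
  classical
  have hfaith := faithful χ hχ
  obtain ⟨n, ρ, hρ, hchar⟩ := χ.2
  have := hρ
  have hdeg : charDegree (χ : S → ℂ) = finrank ℂ (Fin n → ℂ) := by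
    rw [← hchar]
    exact charDegree_character ρ
  rw [hdeg, ← hchar] at h
  obtain ⟨ω, hω⟩ := (Cfsg.Agent.Lib.Char.Eigen.norm_character_eq_iff_scalar ρ x).mp h
  have hinj : Function.Injective ρ := by
    rw [injective_iff_map_eq_one]
    intro g hg
    apply hfaith
    rw [← hchar]
    simp only [Representation.character, hg, map_one]
  have hcen : x ∈ Subgroup.center S := by
    rw [Subgroup.mem_center_iff]
    intro y
    apply hinj
    rw [map_mul, map_mul, hω]
    ext v i
    simp
  rw [center_eq_bot hna] at hcen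
  exact hcen

/-- The core estimate: an element of order `π` commutes with no nontrivial `π'`-element. -/
theorem eq_one_of_commute_of_prime_degree (hna : ∃ a b : S, a * b ≠ b * a) (χ : IrrCharacter S)
    (hχ : χ ≠ one' S) {π : ℕ} (hπ : π.Prime) (hdeg : charDegree (χ : S → ℂ) = π)
    (hsq : ¬ π ^ 2 ∣ Nat.card S) {x v : S} (hx : orderOf x = π) (hc : Commute x v)
    (hv : ¬ π ∣ orderOf v) : v = 1 := by
  classical
  have hχc := isCharacter_of_isIrrCharacter χ.2
  let X : Subgroup S := zpowers x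
  let W : Subgroup S := zpowers v
  have hcomm : ∀ a : X, ∀ b : W, Commute (a : S) (b : S) := by
    rintro ⟨a, ha⟩ ⟨b, hb⟩
    obtain ⟨i, rfl⟩ := Subgroup.mem_zpowers_iff.mp ha
    obtain ⟨j, rfl⟩ := Subgroup.mem_zpowers_iff.mp hb
    exact (hc.zpow_zpow i j)
  let φ : X × W →* S := MonoidHom.noncommCoprod X.subtype W.subtype (fun a b => hcomm a b)
  have hφ : ∀ k : X × W, φ k = (k.1 : S) * (k.2 : S) := fun k => rfl
  letI : Fintype X := Fintype.ofFinite _
  letI : Fintype W := Fintype.ofFinite _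
  have hKc : ∀ a b : X × W, a * b = b * a := by
    rintro ⟨⟨a, ha⟩, ⟨b, hb⟩⟩ ⟨⟨c, hc'⟩, ⟨d, hd⟩⟩
    obtain ⟨i, rfl⟩ := Subgroup.mem_zpowers_iff.mp ha
    obtain ⟨j, rfl⟩ := Subgroup.mem_zpowers_iff.mp hb
    obtain ⟨k, rfl⟩ := Subgroup.mem_zpowers_iff.mp hc'
    obtain ⟨l, rfl⟩ := Subgroup.mem_zpowers_iff.mp hd
    ext
    · exact (Commute.refl x).zpow_zpow i k
    · exact (Commute.refl v).zpow_zpow j l
  set ψ : X × W → ℂ := fun k => (χ : S → ℂ) (φ k) with hψdef
  have hψ : IsCharacter (X × W) ψ := isCharacter_comp φ hχc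
  have hdegψ : charDegree ψ = π := by
    apply charDegree_eq_of_eq_natCast
    show (χ : S → ℂ) (φ 1) = π
    rw [map_one, ← charDegree_natCast hχc, hdeg]
  have hle := charDegree_le_classInner_self hKc hψ
  rw [hdegψ, classInner_self_eq] at hle
  simp only [Complex.ofReal_re] at hle
  have hcardX : Nat.card X = π := by rw [Nat.card_zpowers, hx]
  have hπ0 : (0 : ℝ) < π := by exact_mod_cast hπ.pos
  have hW0 : (0 : ℝ) < Nat.card W := by exact_mod_cast Nat.card_pos
  have hcardK : (Nat.card (X × W) : ℝ) = π * Nat.card W := by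
    rw [Nat.card_prod, hcardX]
    push_cast
    ring
  -- values vanish off `W`
  have hvan : ∀ (a : X) (b : W), a ≠ 1 → (χ : S → ℂ) ((a : S) * (b : S)) = 0 := by
    intro a b ha
    have hao : orderOf (a : S) = π := by
      have h1 : orderOf (a : S) ∣ π := by
        have : orderOf a ∣ Nat.card X := orderOf_dvd_natCard a
        rw [hcardX] at this
        rwa [Subgroup.orderOf_coe]
      rcases (Nat.dvd_prime hπ).mp h1 with h2 | h2
      · exfalso
        apply ha
        ext
        simpa using orderOf_eq_one_iff.mp h2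
      · exact h2
    have hbo : orderOf (b : S) ∣ orderOf v := by
      have : orderOf b ∣ Nat.card W := orderOf_dvd_natCard b
      rw [Nat.card_zpowers] at this
      rwa [Subgroup.orderOf_coe]
    have hcop : Nat.Coprime (orderOf (a : S)) (orderOf (b : S)) := by
      rw [hao]
      exact (Nat.Prime.coprime_iff_not_dvd hπ).mpr (fun h => hv (h.trans hbo))
    have hmul := (hcomm a b).orderOf_mul_eq_mul_orderOf_of_coprime hcop
    have hdv : π ∣ orderOf ((a : S) * (b : S)) := by
      rw [hmul, hao]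
      exact Dvd.intro _ rfl
    refine value_eq_zero_of_defect_zero χ hπ (n := 1) ?_ ?_ ?_ hdv
    · rw [pow_one, ← hx]
      exact orderOf_dvd_natCard x
    · exact hsq
    · rw [pow_one, hdeg]
  have hsum : ∑ k : X × W, ‖ψ k‖ ^ 2 = ∑ b : W, ‖(χ : S → ℂ) (b : S)‖ ^ 2 := by
    rw [Fintype.sum_prod_type, Finset.sum_eq_single (1 : X)]
    · refine Finset.sum_congr rfl fun b _ => ?_
      simp [hψdef, hφ]
    · intro a _ ha
      refine Finset.sum_eq_zero fun b _ => ?_
      have : ψ (a, b) = (χ : S → ℂ) ((a : S) * (b : S)) := rfl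
      rw [this, hvan a b ha]
      simp
    · simp
  rw [hsum, hcardK] at hle
  have hbound : ∀ b : W, ‖(χ : S → ℂ) (b : S)‖ ^ 2 ≤ (π : ℝ) ^ 2 := by
    intro b
    have := norm_le_charDegree hχc (b : S)
    rw [hdeg] at this
    exact pow_le_pow_left₀ (norm_nonneg _) this 2
  by_contra hv1
  have hvW : (⟨v, mem_zpowers v⟩ : W) ≠ 1 := by
    intro h
    exact hv1 (congrArg Subtype.val h)
  have hstrict : ‖(χ : S → ℂ) v‖ ^ 2 < (π : ℝ) ^ 2 := by
    have h1 := norm_le_charDegree hχc v
    rw [hdeg] at h1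
    have h2 : ‖(χ : S → ℂ) v‖ ≠ π := by
      intro h
      exact hv1 (eq_one_of_norm_eq hna χ hχ (by rw [h, hdeg]))
    exact pow_lt_pow_left₀ (lt_of_le_of_ne h1 h2) (norm_nonneg _) (by norm_num)
  have hlt : ∑ b : W, ‖(χ : S → ℂ) (b : S)‖ ^ 2 < ∑ _b : W, (π : ℝ) ^ 2 := by
    apply Finset.sum_lt_sum (fun b _ => hbound b)
    exact ⟨⟨v, mem_zpowers v⟩, Finset.mem_univ _, hstrict⟩
  have hc2 : ∑ _b : W, (π : ℝ) ^ 2 = (Nat.card W : ℝ) * (π : ℝ) ^ 2 := by
    rw [Finset.sum_const, Finset.card_univ, nsmul_eq_mul, Nat.card_eq_fintype_card]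
  rw [hc2] at hlt
  have h5 : ((π : ℝ) * (Nat.card W : ℝ))⁻¹ * ∑ b : W, ‖(χ : S → ℂ) (b : S)‖ ^ 2 < π := by
    rw [inv_mul_lt_iff₀ (by positivity)]
    calc _ < (Nat.card W : ℝ) * (π : ℝ) ^ 2 := hlt
      _ = _ := by ring
  linarith

/-- A subgroup of order `π` is self-centralizing. -/
theorem centralizer_zpowers_eq (hna : ∃ a b : S, a * b ≠ b * a) (χ : IrrCharacter S)
    (hχ : χ ≠ one' S) {π : ℕ} (hπ : π.Prime) (hdeg : charDegree (χ : S → ℂ) = π)
    (hsq : ¬ π ^ 2 ∣ Nat.card S) {x : S} (hx : orderOf x = π) :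
    centralizer ((zpowers x : Subgroup S) : Set S) = zpowers x := by
  classical
  haveI : Fact π.Prime := ⟨hπ⟩
  have hP : Nat.card (zpowers x) = π := by rw [Nat.card_zpowers, hx]
  apply le_antisymm
  · intro c hc
    obtain ⟨a, b, hab, hcomm, ⟨k, hk⟩, hb⟩ := Cfsg.Agent.Lib.Blocks.PPart.exists_pPart_y (p := π) c
    have hac : a ∈ zpowers c :=
      Cfsg.Agent.Lib.Blocks.PPart.isPPart_mem_zpowers ⟨b, hab, hcomm, ⟨k, hk⟩, hb⟩
    have hbc : b ∈ zpowers c := by
      have : b = a⁻¹ * c := by rw [← hab]; group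
      rw [this]
      exact mul_mem (inv_mem hac) (mem_zpowers c)
    have hcx : Commute x c := by
      have := Subgroup.mem_centralizer_iff.mp hc x (mem_zpowers x)
      exact this
    have hxa : Commute x a := by
      obtain ⟨i, rfl⟩ := Subgroup.mem_zpowers_iff.mp hac
      exact hcx.zpow_right i
    have hxb : Commute x b := by
      obtain ⟨i, rfl⟩ := Subgroup.mem_zpowers_iff.mp hbc
      exact hcx.zpow_right i
    have hb1 : b = 1 := eq_one_of_commute_of_prime_degree hna χ hχ hπ hdeg hsq hx hxb hb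
    have hca : c = a := by rw [← hab, hb1, mul_one]
    rw [hca]
    have hk1 : k ≤ 1 := by
      by_contra hlt
      apply hsq
      have h1 : π ^ k ∣ Nat.card S := hk ▸ orderOf_dvd_natCard a
      exact (pow_dvd_pow π (by omega)).trans h1
    interval_cases k
    · rw [pow_zero, orderOf_eq_one_iff] at hk
      rw [hk]
      exact one_mem _
    · rw [pow_one] at hk
      refine Cfsg.Agent.Lib.ExcP.Gram.mem_of_orderOf_eq hP hsq ?_ hk
      show a ∈ centralizer _
      rw [Subgroup.mem_centralizer_iff]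
      intro h hh
      obtain ⟨i, rfl⟩ := Subgroup.mem_zpowers_iff.mp hh
      exact (hxa.zpow_left i)
  · exact Cfsg.Agent.Lib.ExcP.Gram.le_centralizer hP

/-- If `χ` has prime degree `π` then the `π`-part of the order of `S` is at most `π`. -/
theorem not_sq_dvd_of_prime_degree (hna : ∃ a b : S, a * b ≠ b * a) (χ : IrrCharacter S)
    (hχ : χ ≠ one' S) {π : ℕ} (hπ : π.Prime) (hdeg : charDegree (χ : S → ℂ) = π) :
    ¬ π ^ 2 ∣ Nat.card S := by
  classical
  intro hsq
  haveI : Fact π.Prime := ⟨hπ⟩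
  letI := Fintype.ofFinite S
  obtain ⟨F⟩ : Nonempty (Sylow π S) := inferInstance
  have hχc := isCharacter_of_isIrrCharacter χ.2
  have hFsq : π ^ 2 ∣ Nat.card (F : Subgroup S) := F.pow_dvd_card_of_pow_dvd_card hsq
  letI : Fintype (F : Subgroup S) := Fintype.ofFinite _
  set τ : ↥(F : Subgroup S) → ℂ := fun g => (χ : S → ℂ) (g : S) with hτ
  have hτc : IsCharacter (F : Subgroup S) τ := isCharacter_restrict (F : Subgroup S) hχc
  -- central elements of `F` are zeros
  have hz : ∀ z : (F : Subgroup S), (∀ y : (F : Subgroup S), y * z = z * y) → z ≠ 1 → τ z = 0 := by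
    intro z hzc hz1
    refine apply_eq_zero_of_coprime hna χ hχ (z : S) (fun h => hz1 (Subtype.ext h)) ?_
    rw [hdeg, Nat.Prime.coprime_iff_not_dvd hπ]
    intro hd
    have hle : (F : Subgroup S) ≤ centralizer ({(z : S)} : Set S) := by
      intro y hy
      rw [Subgroup.mem_centralizer_singleton_iff]
      have := hzc ⟨y, hy⟩
      exact congrArg Subtype.val this
    exact F.not_dvd_index (hd.trans (Subgroup.index_dvd_of_le hle))
  have hτ1 : τ 1 = π := by
    show (χ : S → ℂ) 1 = π
    rw [← charDegree_natCast hχc, hdeg]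
  have hcardF : ∃ n, Nat.card (F : Subgroup S) = π ^ n := IsPGroup.iff_card.mp F.isPGroup'
  by_cases hFc : ∀ a b : (F : Subgroup S), a * b = b * a
  · -- abelian Sylow subgroup
    obtain ⟨n, hn⟩ := exists_nat_classInner hτc
      (isCharacter_of_isIrrCharacter (Cfsg.Agent.Lib.Char.Burnside.isIrrCharacter_one (G := (F : Subgroup S))))
    rw [classInner_def] at hn
    rw [Finset.sum_eq_single (1 : (F : Subgroup S))] at hn
    · simp only [map_one, mul_one] at hn
      rw [hτ1] at hn
      have hne : (Nat.card (F : Subgroup S) : ℂ) ≠ 0 := card_ne_zero_complex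
      have h2 : (π : ℂ) = n * Nat.card (F : Subgroup S) := by
        rw [← hn]
        field_simp
      have h3 : π = n * Nat.card (F : Subgroup S) := by exact_mod_cast h2
      have h4 : π ^ 2 ∣ π := by
        calc π ^ 2 ∣ Nat.card (F : Subgroup S) := hFsq
          _ ∣ π := Dvd.intro_left n h3.symm
      have h5 := Nat.le_of_dvd hπ.pos h4
      have h6 := hπ.two_le
      nlinarith
    · intro b _ hb
      rw [hz b (fun y => hFc y b) hb, zero_mul]
    · simp
  · -- nonabelian: `χ` restricts irreducibly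
    have hfaith : ∀ g : (F : Subgroup S), τ g = τ 1 → g = 1 := by
      intro g hg
      have := faithful χ hχ (g : S) hg
      exact Subtype.ext this
    have hex : ∃ θ : ↥(F : Subgroup S) → ℂ, IsIrrCharacter (F : Subgroup S) θ ∧ classInner τ θ ≠ 0 ∧ θ 1 ≠ 1 := by
      by_contra hno
      push Not at hno
      exact hFc (Cfsg.Agent.Lib.CharDeep.BlichB.comm_of_linear hτc hfaith hno)
    obtain ⟨θ, hθ, hθ0, hθ1⟩ := hex
    have hθc := isCharacter_of_isIrrCharacter hθ
    have hle : charDegree θ ≤ π :=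
      deg_le_of_constituent hτc hθ hθ0 hτ1 (charDegree_natCast hθc).symm
    obtain ⟨n, hn⟩ := hcardF
    have hd : charDegree θ ∣ π ^ n := by
      rw [← hn]
      exact charDegree_dvd_card hθ
    obtain ⟨j, hj, hj2⟩ := (Nat.dvd_prime_pow hπ).mp hd
    have hdθ : charDegree θ = π := by
      have hj1 : j ≠ 0 := by
        rintro rfl
        apply hθ1
        rw [← charDegree_natCast hθc, hj2]
        simp
      have hj3 : j = 1 := by
        by_contra hj3
        have : π ^ 2 ≤ π ^ j := Nat.pow_le_pow_right hπ.pos (by omega)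
        have h6 := hπ.two_le
        rw [← hj2] at this
        nlinarith
      rw [hj2, hj3, pow_one]
    have hθ1' : θ 1 = π := by rw [← charDegree_natCast hθc, hdθ]
    have hsub := isCharacter_sub_of_classInner_ne_zero hτc hθ hθ0
    have hval : ∀ g, (τ - θ) g = 0 := by
      intro g
      have h1 : charDegree (τ - θ) = 0 := by
        apply charDegree_eq_of_eq_natCast
        simp [hτ1, hθ1']
      have h2 := norm_le_charDegree hsub g
      rw [h1] at h2
      simpa using h2
    have hτθ : ∀ g, τ g = θ g := fun g => sub_eq_zero.mp (hval g)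
    -- a central element
    haveI : Nontrivial (F : Subgroup S) := by
      rw [← Finite.one_lt_card_iff_nontrivial]
      have : π ^ 2 ≤ Nat.card (F : Subgroup S) := Nat.le_of_dvd Nat.card_pos hFsq
      have h6 := hπ.two_le
      nlinarith
    haveI := F.isPGroup'.center_nontrivial
    obtain ⟨z, hz1⟩ := exists_ne (1 : Subgroup.center (F : Subgroup S))
    have hzF : τ (z : (F : Subgroup S)) = 0 := by
      refine hz (z : (F : Subgroup S)) (fun y => (Subgroup.mem_center_iff.mp z.2 y)) ?_
      intro h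
      exact hz1 (Subtype.ext h)
    obtain ⟨m, ρ, hρ, hρχ⟩ := hθ
    haveI := hρ
    obtain ⟨ω, hω⟩ := Cfsg.Agent.Lib.Char.Central.center_acts_scalar ρ (z : (F : Subgroup S)) z.2
    have hnorm : ‖ρ.character (z : (F : Subgroup S))‖ = finrank ℂ (Fin m → ℂ) := by
      apply (Cfsg.Agent.Lib.Char.Eigen.norm_character_eq_iff_scalar ρ (z : (F : Subgroup S))).mpr
      refine ⟨ω, ?_⟩
      rw [hω]
      rfl
    have h7 : charDegree θ = finrank ℂ (Fin m → ℂ) := by
      rw [← hρχ]
      exact charDegree_character ρ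
    rw [← h7, hρχ, ← hτθ, hzF, hdθ] at hnorm
    simp only [norm_zero] at hnorm
    have : (π : ℝ) ≠ 0 := by exact_mod_cast hπ.ne_zero
    exact this hnorm.symm

end Simple

end Cfsg.Agent.Lib.SmallCof
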